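import Cfsg.Agent.SW.Defs

/-! Interface for S1927 (sorried statements; never import from shipped files). -/

set_option autoImplicit false
set_option linter.unusedSectionVars false

namespace Cfsg.Agent.SW.I

open Subgroup FT BS H1 SF
open scoped commutatorElement

universe u

/-! ### PAIR -/
theorem PAIR {U D : Type u} [AddCommGroup U] [Module (ZMod 2) U] [Finite U] [AddCommGroup D]
    [Module (ZMod 2) D] [Finite D] (L : Submodule (ZMod 2) (U →ₗ[ZMod 2] D))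
    (Γ : Subgroup (U ≃ₗ[ZMod 2] U)) (hΓ : ∀ g ∈ Γ, ∀ l ∈ L, l ∘ₗ g.toLinearMap ∈ L) (c : ℕ)
    (lo : ∀ X : Submodule (ZMod 2) U, (∀ g ∈ Γ, ∀ x ∈ X, g x ∈ X) → X ≠ ⊥ → c < Nat.card X)
    (up : ∀ X : Submodule (ZMod 2) U, (∀ g ∈ Γ, ∀ x ∈ X, g x ∈ X) →
      Nat.card X ≤ c * Nat.card (L.map (LinearMap.lcomp (ZMod 2) D X.subtype)))
    (X : Submodule (ZMod 2) U) :
    Nat.card X ≤ Nat.card (L.map (LinearMap.lcomp (ZMod 2) D X.subtype)) := sorry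

variable {G : Type u} [Group G] [Finite G]
  {A B D E H K L M N O Q R S T U V W W0 W1 X : Subgroup G} {b g v x y : G}

/-! ### PG -/
theorem PAIRG (hD : EA D) (dV : D ≤ V) (sq : ∀ v ∈ V, v * v ∈ D) (dc : D ≤ 𝐂(V)) (dn : D ≤ 𝐂(N))
    (de : D ≤ 𝐂(E)) (vn : ⁅V, N⁆ ≤ D) (nV : E ≤ 𝐍(V)) (nN : E ≤ 𝐍(N)) (c : ℕ)
    (lo : ∀ U, D ≤ U → U ≤ V → E ≤ 𝐍(U) → U ≠ D → c < D.relIndex U)
    (up : ∀ U, D ≤ U → U ≤ V → E ≤ 𝐍(U) → D.relIndex U ≤ c * (𝐂(U)).relIndex N)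
    (h1 : D ≤ X) (h2 : X ≤ V) : D.relIndex X ≤ (𝐂(X)).relIndex N := sorry

/-! ### LL -/
theorem LL (h : MP H S M) (hA : A ≤ S) (hQ : ¬ A ≤ core {2} H) :
    ∃ g ∈ H, ∃ L ≤ H, cj g A ≤ S ∧ cj g A ≤ L ∧ core {2} H ≤ core {2} L ∧ core {2} L ≤ S ∧
      ¬ cj g A ≤ core {2} L ∧ ¬ L ≤ M ∧
      ∀ K, cj g A ⊔ core {2} L ≤ K → K ≤ L → K ≠ L → K ≤ M := sorry

/-! ### CT -/
theorem FR (h : MP H S M) (hN : N ⊴ H) (hM : N ≤ M) : S ⊓ N ≤ core {2} H := sorry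

theorem CT (h3 : NoS3 G) (h : MP H S M) (hB : B ≤ S) (hg : g ∈ H) (h1 : cj g B ≤ S) :
    ∃ m ∈ M, m ∈ H ∧ ∀ b ∈ B, ⁅m⁻¹ * g, b⁆ ∈ core {2} H := sorry

theorem WC (h3 : NoS3 G) (h : MP H S 𝐍(W)) (hW : W ≤ S) (hQ : ¬ W ≤ core {2} H) (hg : g ∈ H)
    (h1 : cj g W ≤ S) : cj g W = W := sorry

theorem CFG (h3 : NoS3 G) (h : MP H S M) (hA : A ≤ S) (hQ : ¬ A ≤ core {2} H)
    (sq : ∀ a ∈ A, a * a ∈ core {2} H) : ∃ g ∈ H, ∃ O E, cj g A ≤ S ∧ core {2} H ≤ O ∧ O ≤ S ∧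
      E ≤ H ∧ Cfg M O E (cj g A) := sorry

theorem N3 (h : ¬ H9.Sec (Equiv.Perm (Fin 4)) G) (hc : H9.Constrained 2 G) : NoS3 G := sorry

/-! ### CG -/
theorem Cfg_gen (c : Cfg M O E A) (hx : x ∈ E) (hxM : x ∉ M) (hb : b ∈ A) (hbO : b ∉ O) :
    cj x A ⊔ zpowers b = E := sorry
theorem Cfg_gen' (c : Cfg M O E A) (hx : x ∈ E) (hxM : x ∉ M) : cj x A ⊔ A = E := sorry
theorem Cfg_od (c : Cfg M O E A) : E ≤ Od E ⊔ A := sorry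
theorem Cfg_ker (c : Cfg M O E A) (hK : K ⊴ E) (hb : b ∈ A) (hbO : b ∉ O) (hbK : b ∈ K) :
    Od E ≤ K := sorry
theorem CF_gv' (c : CF L N W1 W0) (h3 : NoS3 G) (hA : A ≤ L) (sq : ∀ a ∈ A, a * a ∈ cs W1 W0) :
    (cs W1 W0).relIndex A ^ 2 ≤ (cs A W0).relIndex W1 := sorry

/-! ### TR -/
theorem TR (hV : EA V) (hN : N ≤ 𝐍(V)) (h2 : IsPGroup 2 N) (sq : ∀ b ∈ N, b * b ∈ 𝐂(V))
    (off : (𝐂(N)).relIndex V ≤ (𝐂(V)).relIndex N) (nc : ¬ N ≤ 𝐂(V)) : ∃ A ≤ N, Pr V A V := sorry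
theorem noOff_of (hW : EA W) (hT : T ≤ 𝐍(W)) (h2 : IsPGroup 2 T)
    (h : ∀ A ≤ T, ∀ W0, ¬ Pr W A W0) : NoOff T W := sorry
theorem Best_mono (h : Best V A) (hU : U ≤ V) (hV : V ≤ 𝐂(V)) : Best U A := sorry
theorem Best_off (h : Best W A) : (𝐂(A)).relIndex W ≤ (𝐂(W)).relIndex A := sorry
theorem Pr_map_iff {G' : Type u} [Group G'] [Finite G'] (f : G →* G') (hf : Function.Injective f) :
    Pr (W.map f) (A.map f) (W0.map f) ↔ Pr W A W0 := sorry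
theorem Pr_cj (h : Pr W A W0) (g : G) : Pr (cj g W) (cj g A) (cj g W0) := sorry

/-! ### HF -/
theorem HALF1 (c : Cfg M O E A) (h : Hf V D O E A x) (hx : x ∈ E) (hxM : x ∉ M) (hb : b ∈ A)
    (hbO : b ∉ O) (hv : v ∈ V) (e : ⁅v, b⁆ ∈ D) : v ∈ 𝐂(A) := sorry
theorem HALF2 (c : Cfg M O E A) (h : Hf V D O E A x) (hx : x ∈ E) (hxM : x ∉ M) (h1 : D ≤ U)
    (h2 : U ≤ V) (hU : E ≤ 𝐍(U)) :
    D.relIndex (U ⊓ 𝐂(cj x A)) = D.relIndex (U ⊓ 𝐂(A)) ∧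
      D.relIndex U = D.relIndex (U ⊓ 𝐂(A)) ^ 2 ∧ U ≤ (U ⊓ 𝐂(A)) ⊔ (U ⊓ 𝐂(cj x A)) ∧
      ∀ b ∈ A, b ∉ O → ∀ u ∈ U ⊓ 𝐂(A), ∃ v ∈ U ⊓ 𝐂(cj x A), u⁻¹ * ⁅v, b⁆ ∈ D := sorry
theorem HALF3 (h3 : NoS3 G) (c : Cfg M O E A) (h : Hf V D O E A x) (hx : x ∈ E) (hxM : x ∉ M)
    (h1 : D ≤ U) (h2 : U ≤ V) (hU : E ≤ 𝐍(U)) (hne : U ≠ D) :
    O.relIndex A < D.relIndex (U ⊓ 𝐂(A)) := sorry

/-! ### QRC -/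
theorem QRC (h3 : NoS3 G) (hV : EA V) (c : Cfg 𝐍(W) O E A) (hW : W ≤ V) (nV : E ≤ 𝐍(V))
    (hg : V ≤ ncl E W) (aW : A ≤ 𝐂(W)) (q : ⁅V, A⁆ ≤ 𝐂(A)) (best : Best V A) (no : NoOff O W) :
    False := sorry

/-! ### BETA -/
theorem BETA (h3 : NoS3 G) (hW : EA W) (nW : E ≤ 𝐍(W)) (h1 : W1 ≤ W) (c : Cfg 𝐍(W1) O E A)
    (p : Pr W A W0) (a1 : A ≤ 𝐂(W1)) (cO : A ⊓ 𝐂(W) ≤ O) (hy : y ∈ E) (out : ¬ cj y W1 ≤ W0) :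
    False := sorry

/-! ### C1 -/
theorem C1 (h3 : NoS3 G) (hW : EA W) (c : Cfg 𝐍(W) O E W) (qO : Q ≤ O) (nQ : E ≤ 𝐍(Q))
    (cQ : E ⊓ 𝐂(Q) ≤ Q) (no : NoOff O W) (hx : x ∈ E) (hxM : x ∉ 𝐍(W)) :
    Pr W (cj x W ⊓ O) (W ⊓ O) := sorry

/-! ### SN -/
theorem STEP (h3 : NoS3 G) (h : MP H S 𝐍(W1)) (hW : EA W) (nW : H ≤ 𝐍(W)) (h1 : W1 ≤ W)
    (no : NoOff S W1) (p : Pr W A W0) (hA : A ≤ S) (hQ : ¬ A ≤ core {2} H)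
    (hc : ∀ g ∈ H, cj g A ≤ S → cj g A ≤ 𝐂(W1)) : False := sorry

theorem NORM (h3 : NoS3 G) (hS : Syl 2 S H) (hW : EA W) (hWS : W ≤ S) (nW : S ≤ 𝐍(W))
    (nJ : ∀ K, S ≤ K → K ≤ H → K ≤ 𝐍(JJ 2 S) → K ≤ 𝐍(W))
    (no : ∀ A ≤ S, ∀ W0, ¬ Pr W A W0) (hR : R ⊴ H) (h2 : IsPGroup 2 R) (hc : H ⊓ 𝐂(R) ≤ R) :
    H ≤ 𝐍(W) := sorry

/-! ### WF -/
section
variable {P : Type u} [Group P] (𝔉 : Set (Mdl P))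
theorem WF_spec [Finite P] : omegaOne 2 (center P) ≤ WF 𝔉 ∧ (WF 𝔉).Normal ∧
    ∀ m ∈ 𝔉, m.K ≤ 𝐍((WF 𝔉).map m.ι) := sorry
theorem WF_le_J [Finite P] : WF 𝔉 ≤ omegaOne 2 (ZJ 2 (⊤ : Subgroup P)) ∧ EA (WF 𝔉) := sorry
theorem WS_cf : IsCharPFunctor 2 WS.{u} := sorry
end

/-! ### ST -/
theorem ST {P : Type u} [Group P] [Finite P] (hP : IsPGroup 2 P) (𝔉 : Set (Mdl P)) (h : Cl 𝔉)
    (A W0 : Subgroup P) : ¬ Pr (WF 𝔉) A W0 := sorry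

/-! ### FIN -/
theorem ctl (h : ¬ H9.Sec (Equiv.Perm (Fin 4)) G) : H9.CtlF 2 {WS.{u}} G := sorry

end Cfsg.Agent.SW.I
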